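import Cfsg.Agent.Co0Five.Check.Lifts0
import Cfsg.Agent.Co0Five.Check.Lifts1
import Cfsg.Agent.Co0Five.Check.Lifts2

/-! The six elements. -/

set_option autoImplicit false
set_option maxRecDepth 10000

noncomputable section

namespace CfsgLib.Co0Five

open Cfsg CfsgLib.Leech

/-- The element of order 5. -/
def eA : Co0 := matCo0 okA

/-- The five lifts. -/
def lift (x : ℕ) : Co0 :=
  match x with
  | 1 => matCo0 ok1
  | 2 => matCo0 ok2
  | 3 => matCo0 ok3
  | 4 => matCo0 ok4
  | _ => matCo0 ok0

theorem lift_smul {x : ℕ} (hx : x < 5) (v : leechLattice) :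
    ((lift x • v : leechLattice) : GolayPt → ℤ) = matFun (liftRows x) v := by
  interval_cases x <;> rfl

end CfsgLib.Co0Five

end
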