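import Mathlib
import Cfsg.Agent.SporJ2.ReflCent
import Cfsg.Agent.ExtraspecialTwo.MinusFour
import Cfsg.Agent.CharP.Climb
import Cfsg.Agent.Eq.Def_Classical

/-! The centraliser of a reflection in `J2` has the large extraspecial shape of minus type. -/

set_option autoImplicit false
set_option maxRecDepth 100000
set_option linter.style.haveILetI false

noncomputable section

namespace CfsgLib.Co0Five.JSide

open CfsgLib.SporJ2 CfsgLib.SporJ2.ReflCent CfsgLib.CosetEnum LineAction

theorem normal_eq {H : Type*} [Group H] (Q : Subgroup H) [Q.Normal]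
    (e : H ⧸ Q ≃* alternatingGroup (Fin 5)) (R : Subgroup H) [R.Normal] :
    R ≤ Q ∨ ∀ h : H, ∃ r ∈ R, h⁻¹ * r ∈ Q := by
  haveI : IsSimpleGroup (alternatingGroup (Fin 5)) := (alternatingGroup.isSimpleGroup (by simp))
  let f : H →* alternatingGroup (Fin 5) := e.toMonoidHom.comp (QuotientGroup.mk' Q)
  have hf : Function.Surjective f := e.surjective.comp (QuotientGroup.mk'_surjective Q)
  have hn : (R.map f).Normal := Subgroup.Normal.map inferInstance f hf
  rcases hn.eq_bot_or_eq_top with h | h
  · refine Or.inl fun r hr => ?_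
    have : f r = 1 := Subgroup.mem_bot.1 (h ▸ ⟨r, hr, rfl⟩)
    exact (QuotientGroup.eq_one_iff r).1 ((map_eq_one_iff e e.injective).1 this)
  · refine Or.inr fun x => ?_
    obtain ⟨r, hr, hrx⟩ : f x ∈ R.map f := h ▸ Subgroup.mem_top _
    exact ⟨r, hr, QuotientGroup.eq.1 (e.injective hrx.symm)⟩

/-- A self-centralising normal 2-subgroup with quotient `A5` is the generalised Fitting subgroup. -/
theorem fStar_eq {H : Type*} [Group H] [Finite H] (Q : Subgroup H) [Q.Normal]
    (hQ : IsPGroup 2 Q) (hc : Subgroup.centralizer (Q : Set H) ≤ Q)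
    (e : H ⧸ Q ≃* alternatingGroup (Fin 5)) : Cfsg.generalizedFittingSubgroup H = Q := by
  haveI := Fact.mk Nat.prime_two
  have hle : Q ≤ Cfsg.pCore 2 H := CfsgLib.LocalP.le_pCore inferInstance hQ
  haveI := Cfsg.pCore_normal 2 H
  have heq : Cfsg.pCore 2 H = Q := by
    refine le_antisymm ?_ hle
    rcases normal_eq Q e (Cfsg.pCore 2 H) with h | h
    · exact h
    · exfalso
      have htop : Cfsg.pCore 2 H = ⊤ := eq_top_iff.2 fun x _ => by
        obtain ⟨r, hr, hq⟩ := h x
        have := mul_mem hr (inv_mem (hle hq))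
        simpa [← mul_assoc] using this
      have hp : IsPGroup 2 H := ((CfsgLib.LocalP.isPGroup_pCore (G := H) (p := 2)).of_equiv
        ((MulEquiv.subgroupCongr htop).trans Subgroup.topEquiv))
      obtain ⟨n, hn⟩ := IsPGroup.iff_card.1 ((hp.to_quotient Q).of_equiv e)
      rw [nat_card_alternatingGroup] at hn
      have h3 : (3 : ℕ) ∣ 2 ^ n := by rw [← hn]; simp [Nat.factorial]
      have := Nat.Prime.dvd_of_dvd_pow Nat.prime_three h3
      norm_num at this
  rw [CfsgLib.CharPClimb.generalizedFitting_eq_pCore (p := 2) (by rw [heq]; exact hc), heq]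

/-- packed values for the check -/
def outerOK (k : Fin 32) : Bool :=
  let a := gcode 0
  let K := kcode k
  let Z := kcode zi
  (!allBelow (fun i => img16 a (img16 K i) == img16 K (img16 a i)) 315) &&
    !allBelow (fun i => img16 a (img16 K i) == img16 Z (img16 K (img16 a i))) 315

theorem outer_check : ((List.finRange 32).any outerOK) = true ∧
    decide (pi 0 ≠ 1) = true := by decide +kernel

theorem centralizer_ker_le :
    Subgroup.centralizer (pairHom.ker : Set pairs) ≤ pairHom.ker := by
  obtain ⟨q⟩ := exists_quotient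
  rcases normal_eq pairHom.ker q (Subgroup.centralizer (pairHom.ker : Set pairs)) with h | h
  · exact h
  exfalso
  obtain ⟨p, hp, hpk⟩ := h (genP 0)
  obtain ⟨k, -, hk⟩ := List.any_eq_true.1 outer_check.1
  obtain ⟨m, hm⟩ := el_bijective.2 ⟨_, hpk⟩
  have hg : genP 0 = p * ((el m : pairHom.ker) : pairs)⁻¹ := by
    rw [hm]; simp
  have hpc : ∀ j, ((el j : pairHom.ker) : pairs) * p = p * (el j : pairHom.ker) := fun j =>
    hp _ (el j).2
  obtain ⟨-, -, -, hzc, hcomm, -, -⟩ := tab_ok
  simp only [outerOK, Bool.and_eq_true, Bool.not_eq_true'] at hk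
  have key : genP 0 * (el k).1 = (el k).1 * genP 0 ∨
      genP 0 * (el k).1 = (el zi).1 * ((el k).1 * genP 0) := by
    obtain ⟨n, hn⟩ := el_bijective.2 (el m)⁻¹
    have hn' : ((el n : pairHom.ker) : pairs) = ((el m : pairHom.ker) : pairs)⁻¹ := by rw [hn]; rfl
    rw [hg, ← hn']
    rcases hcomm n k with e | e
    · left
      have e' : el n * el k = el k * el n := by rw [el_mul, el_mul, e]
      have e'' := congrArg Subtype.val e'
      simp only [Subgroup.coe_mul] at e''
      rw [mul_assoc, e'', ← mul_assoc, ← hpc, mul_assoc]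
    · right
      have e' : el n * el k = el zi * (el k * el n) := by rw [el_mul, el_mul, el_mul, e]
      have e'' := congrArg Subtype.val e'
      simp only [Subgroup.coe_mul] at e''
      rw [mul_assoc, e'', ← mul_assoc p, ← hpc, mul_assoc, ← mul_assoc p, ← hpc, mul_assoc]
  rcases key with e | e
  · refine (Bool.eq_false_iff.1 hk.1) ((Model.allBelow_iff _ _).2 fun i hi => beq_iff_eq.2 ?_)
    have h2 := congrArg (fun x : pairs => ((permOf x ⟨i, hi⟩ : Fin 315) : ℕ)) e
    simp only [map_mul, Equiv.Perm.mul_apply] at h2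
    rw [show permOf (genP 0) = gperm 0 from rfl, gperm_apply, el_spec, el_spec, gperm_apply] at h2
    exact h2
  · refine (Bool.eq_false_iff.1 hk.2) ((Model.allBelow_iff _ _).2 fun i hi => beq_iff_eq.2 ?_)
    have h2 := congrArg (fun x : pairs => ((permOf x ⟨i, hi⟩ : Fin 315) : ℕ)) e
    simp only [map_mul, Equiv.Perm.mul_apply] at h2
    rw [show permOf (genP 0) = gperm 0 from rfl, gperm_apply, el_spec, el_spec, el_spec,
      gperm_apply] at h2
    exact h2

theorem genPerm_eq : allBelow (fun i => img16 (genCode 2) i == img16 (gcode 3) i) 315 = true ∧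
    decide (pi 3 = 1) = true ∧ decide (genLine 2 ≠ genLine 0) = true ∧
    (!allBelow (fun i => img16 (genCode 0) i == i) 315) = true := by
  decide +kernel

open Cfsg.Spor in
theorem lineEquiv_reflJ (i : Fin 4) :
    (lineEquiv (reflJ (genLine i)) : Equiv.Perm (Fin 315)) = genPermFin i := by
  have hi : gen i ∈ twoJ2 := twoJ2_eq ▸ Subgroup.subset_closure ⟨i, rfl⟩
  have he : reflection (genLine i) = gen i := (isRefl_reflection _).unique (isRefl_gen i)
  show lineHom ⟨reflection (genLine i), _⟩ = _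
  refine Equiv.ext fun j => reflection_injective ?_
  rw [← lineHom_spec, show genPermFin i j = genImage i j from rfl, ← gen_conj]
  simp only [he]

open Cfsg.Spor in
/-- The shape. -/
theorem shape : Finite J2 ∧ IsSimpleGroup J2 ∧ ¬ IsMulCommutative J2 ∧
    ∃ z : J2, orderOf z = 2 ∧ ∃ (Q : Subgroup (Subgroup.centralizer ({z} : Set J2))) (_ : Q.Normal),
      Cfsg.generalizedFittingSubgroup (Subgroup.centralizer ({z} : Set J2)) = Q ∧
      Cfsg.IsExtraspecial 2 Q ∧ Nat.card Q = 2 ^ 5 ∧
      Nonempty ((Subgroup.centralizer ({z} : Set J2)) ⧸ Q ≃*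
        Cfsg.Omega (ZMod 2) (Cfsg.quadFormMinus 1 (ZMod 2) 1 1)) ∧
      ∃ g : J2, (∃ hq : g * z * g⁻¹ ∈ Subgroup.centralizer ({z} : Set J2),
        (⟨g * z * g⁻¹, hq⟩ : Subgroup.centralizer ({z} : Set J2)) ∈ Q) ∧ g * z * g⁻¹ ≠ z := by
  obtain ⟨eJ⟩ := exists_equiv_J2
  haveI : Finite J2 := Finite.of_equiv _ eJ.symm.toEquiv
  haveI := Hundred.simple
  have hsimple : IsSimpleGroup J2 := eJ.isSimpleGroup
  have hnc : ¬ IsMulCommutative J2 := by
    intro h
    have := center_grp
    have htop : Subgroup.center Hundred.grp = ⊤ := eq_top_iff.2 fun a _ =>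
      Subgroup.mem_center_iff.2 fun b => eJ.symm.injective (by
        rw [map_mul, map_mul]; exact h.1.comm _ _)
    have hc := Hundred.card_grp
    rw [← Subgroup.card_top (G := Hundred.grp), ← htop, this, Subgroup.card_bot] at hc
    norm_num at hc
  set z : J2 := reflJ j0 with hzdef
  have hmem : ∀ x : J2, x ∈ Subgroup.centralizer {z} ↔
      (lineEquiv x : Equiv.Perm (Fin 315)) ∈ lineStab := by
    intro x
    induction x using QuotientGroup.induction_on with
    | H g =>
      rw [Subgroup.mem_centralizer_singleton_iff, ← mul_inv_eq_iff_eq_mul, conj_reflJ, reflJ_eq_iff]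
      exact ⟨fun h => ⟨(lineEquiv (g : J2)).2, h⟩, fun h => h.2⟩
  have hpm : ∀ p : pairs, permOf p ∈ lineGroup := fun p => (range_permOf_le ⟨p, rfl⟩).1
  let E : pairs →* Subgroup.centralizer {z} :=
    MonoidHom.codRestrict (lineEquiv.symm.toMonoidHom.comp
      (MonoidHom.codRestrict permOf lineGroup hpm)) _ fun p => (hmem _).2 (by
        show ((lineEquiv (lineEquiv.symm ⟨permOf p, hpm p⟩) : lineGroup) : Equiv.Perm (Fin 315)) ∈ _
        rw [MulEquiv.apply_symm_apply]; exact range_permOf_le ⟨p, rfl⟩)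
  have hval : ∀ p : pairs, (lineEquiv (E p : J2) : Equiv.Perm (Fin 315)) = permOf p := fun p => by
    show ((lineEquiv (lineEquiv.symm ⟨permOf p, hpm p⟩) : lineGroup) : Equiv.Perm (Fin 315)) = _
    rw [MulEquiv.apply_symm_apply]
  have hEb : Function.Bijective E := by
    refine ⟨fun p q h => permOf_injective (by rw [← hval, ← hval, h]), fun x => ?_⟩
    obtain ⟨p, hp⟩ := pairsEquiv.surjective ⟨_, (hmem x).1 x.2⟩
    refine ⟨p, Subtype.ext (lineEquiv.injective (Subtype.ext ?_))⟩
    rw [hval]
    exact congrArg Subtype.val hp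
  let e : pairs ≃* Subgroup.centralizer {z} := MulEquiv.ofBijective E hEb
  haveI hn : (pairHom.ker.map E).Normal := pairHom.normal_ker.map E hEb.2
  let eQ : pairHom.ker ≃* pairHom.ker.map E := pairHom.ker.equivMapOfInjective E hEb.1
  haveI : Finite (pairHom.ker.map E) := Finite.of_equiv _ eQ.toEquiv
  obtain ⟨q⟩ := exists_quotient
  haveI : (pairHom.ker.map (e : pairs →* Subgroup.centralizer {z})).Normal := hn
  let eA : Subgroup.centralizer {z} ⧸ pairHom.ker.map E ≃* alternatingGroup (Fin 5) :=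
    (QuotientGroup.congr pairHom.ker _ e rfl).symm.trans q
  have hcard : Nat.card (pairHom.ker.map E) = 2 ^ 5 := by
    rw [← Nat.card_congr eQ.toEquiv, cards.1]; norm_num
  haveI := Fact.mk Nat.prime_two
  have hcent : Subgroup.centralizer (pairHom.ker.map E : Set (Subgroup.centralizer {z})) ≤
      pairHom.ker.map E := by
    intro x hx
    obtain ⟨p, rfl⟩ := hEb.2 x
    refine ⟨p, centralizer_ker_le fun k hk => hEb.1 ?_, rfl⟩
    rw [map_mul, map_mul]
    exact hx _ ⟨k, hk, rfl⟩
  have hord : orderOf z = 2 := by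
    refine orderOf_eq_prime ?_ fun h => ?_
    · refine lineEquiv.injective (Subtype.ext ?_)
      rw [map_pow, map_one, Subgroup.coe_pow, Subgroup.coe_one, hzdef,
        show j0 = genLine 0 from rfl, lineEquiv_reflJ, pow_two]
      exact Equiv.ext fun x => (genPermFin 0).symm_apply_apply x
    · have h1 := congrArg (fun y : J2 => (lineEquiv y : Equiv.Perm (Fin 315))) h
      simp only [map_one, Subgroup.coe_one, hzdef, show j0 = genLine 0 from rfl, lineEquiv_reflJ] at h1
      have hne := genPerm_eq.2.2.2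
      rw [Bool.not_eq_true', ← Bool.not_eq_true, Model.allBelow_iff] at hne
      refine hne fun i hi => beq_iff_eq.2 ?_
      have := genPermFin_apply 0 ⟨i, hi⟩
      rw [h1] at this
      exact this.symm
  obtain ⟨iso⟩ := CfsgLib.ExtraspecialTwo.MinusFour.nonempty_perm_equiv
  have hmap : (Cfsg.Omega (ZMod 2) (Cfsg.quadFormMinus 1 (ZMod 2) 1 1)).map
      iso.toMonoidHom = alternatingGroup (Fin 5) := by
    rw [← alternatingGroup.commutator_perm_eq (by simp), Cfsg.Omega, commutator_def,
      commutator_def, Subgroup.map_commutator, Subgroup.map_top_of_surjective _ iso.surjective]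
  obtain ⟨g, hg, hge⟩ := exists_conj j0 (genLine 2)
  have hgj : lineHom ⟨g, hg⟩ j0 = genLine 2 := reflection_injective (by rw [← lineHom_spec, ← hge])
  have hconj : ((⟨g, hg⟩ : twoJ2) : J2) * z * ((⟨g, hg⟩ : twoJ2) : J2)⁻¹ = reflJ (genLine 2) := by
    rw [hzdef, conj_reflJ, hgj]
  have h3 : genP 3 ∈ pairHom.ker := by
    show pi 3 = 1
    exact of_decide_eq_true genPerm_eq.2.1
  have hperm : (lineEquiv (reflJ (genLine 2)) : Equiv.Perm (Fin 315)) = permOf (genP 3) := by
    rw [lineEquiv_reflJ]
    refine Equiv.ext fun i => Fin.ext ?_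
    show _ = ((gperm 3 i : Fin 315) : ℕ)
    rw [genPermFin_apply, gperm_apply]
    exact beq_iff_eq.1 ((Model.allBelow_iff _ _).1 genPerm_eq.1 i i.2)
  have hEz : (E (genP 3) : J2) = reflJ (genLine 2) :=
    lineEquiv.injective (Subtype.ext (by rw [hval, hperm]))
  refine ⟨‹_›, hsimple, hnc, z, hord, pairHom.ker.map E, hn,
    fStar_eq _ (IsPGroup.of_card hcard) hcent eA, extraspecial_congr eQ extraspecial, hcard,
    ⟨eA.trans ((iso.subgroupMap _).trans (MulEquiv.subgroupCongr hmap)).symm⟩,
    ((⟨g, hg⟩ : twoJ2) : J2), ?_, ?_⟩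
  · simp only [hconj]
    refine ⟨hEz ▸ (E (genP 3)).2, genP 3, h3, Subtype.ext hEz⟩
  · rw [hconj]
    exact fun h => of_decide_eq_true genPerm_eq.2.2.1 ((reflJ_eq_iff _).1 h)

end CfsgLib.Co0Five.JSide

end
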