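import Cfsg.Agent.Co0Five.Vec
import Cfsg.Agent.Co0Five.Check.Relations0
import Cfsg.Agent.Co0Five.Check.Relations1
import Cfsg.Agent.Co0Five.Check.Relations2
import Cfsg.Agent.Co0Five.Check.Enum0
import Cfsg.Agent.Co0Five.Check.Enum1
import Cfsg.Agent.SporJ2.Iso
import Cfsg.Agent.S0394

/-! The centraliser of the element of order 5 modulo `⟨a, -1⟩` is the simple group of order
604800 on 100 points. -/

set_option autoImplicit false
set_option maxRecDepth 100000
set_option linter.style.haveILetI false

noncomputable section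

namespace CfsgLib.Co0Five

open Cfsg CfsgLib.Leech CfsgLib.CosetEnum CfsgLib.SporJ2
open scoped BigOperators

theorem gword_comm {w : List ℕ} (hw : ∀ x ∈ w, x < 5) : gword lift w * eA = eA * gword lift w := by
  induction w with
  | nil => simp [gword]
  | cons x xs ih =>
    rw [gword_cons, mul_assoc, ih fun y hy => hw y (List.mem_cons_of_mem _ hy), ← mul_assoc,
      lift_comm (hw x List.mem_cons_self), mul_assoc]

theorem chain_sound : ∀ (xs cs : List ℕ), chainOK xs cs = true → ∀ v : leechLattice,
    (v : GolayPt → ℤ) = vec (cs.headD 0) →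
      ((gword lift xs.reverse • v : leechLattice) : GolayPt → ℤ) = vec (cs.getLastD 0) ∧
        ∀ x ∈ xs, x < 5
  | [], [c], _, v, hv => by simpa [gword] using hv
  | [], [], h, _, _ => by simp [chainOK] at h
  | [], _ :: _ :: _, h, _, _ => by simp [chainOK] at h
  | x :: xs, [], h, _, _ => by simp [chainOK] at h
  | x :: xs, [_], h, _, _ => by simp [chainOK] at h
  | x :: xs, c :: c' :: cs, h, v, hv => by
    simp only [chainOK, Bool.and_eq_true, Nat.blt, Nat.ble_eq] at h
    obtain ⟨⟨hx, hs⟩, hrest⟩ := h
    have hv' : ((lift x • v : leechLattice) : GolayPt → ℤ) = vec ((c' :: cs).headD 0) := by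
      rw [lift_smul hx, hv]; exact matFun_vec hs
    obtain ⟨h1, h2⟩ := chain_sound xs (c' :: cs) hrest _ hv'
    refine ⟨?_, by simpa using ⟨hx, h2⟩⟩
    have hg : gword lift (x :: xs).reverse = gword lift xs.reverse * lift x := by simp [gword]
    rw [hg, mul_smul, h1]
    simp

/-! ### The relations -/

theorem ofVec_neg (x : GolayPt → ℤ) : ofVec (-x) = negList (ofVec x) := by
  simp [ofVec, negList, List.map_map, Function.comp_def]

theorem toVec_ofVec_inj {x y : GolayPt → ℤ} (h : ofVec x = ofVec y) : x = y := by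
  rw [← toVec_ofVec x, h, toVec_ofVec]

/-- Every relator is a power of the element, up to sign. -/
theorem rel_value {w : List ℕ} (hw : w ∈ Hundred.rels) :
    gword lift w ∈ Subgroup.zpowers eA ⊔ Subgroup.center Co0 := by
  obtain ⟨r, hr, rfl⟩ := List.getElem_of_mem hw
  have h2 : ∀ k < 6, _ := fun k hk => by
    have h : relStep k = true := by
      interval_cases k
      exacts [rel_step0, rel_step1, rel_step2, rel_step3, rel_step4, rel_step5]
    simp only [relStep, Bool.and_eq_true, Model.allBelow_iff, beq_iff_eq] at h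
    have h3 := h.2 r hr
    rw [List.getD_eq_getElem _ _ hr] at h3
    exact h3
  set w := Hundred.rels[r]
  set e := relSign.getD r (false, 0)
  let ε : Co0 := bif e.1 then negOne else 1
  have hεc : ε ∈ Subgroup.center Co0 := by
    rcases Bool.eq_false_or_eq_true e.1 with he | he
    · simp only [ε, he, cond_true]
      exact Subgroup.mem_center_iff.2 fun g => (negOne_comm g).symm
    · simp only [ε, he, cond_false]
      exact one_mem _
  have hwlt : ∀ x ∈ w, x < 5 := fun x hx =>
    (chain_sound _ _ ((h2 0 (by norm_num)).1.2) vv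
      (by rw [(h2 0 (by norm_num)).1.1]; rfl)).2 x (List.mem_reverse.2 hx)
  have hval : gword lift w = ε * eA ^ (e.2 % 5) := by
    refine mul_inv_eq_one.1 (eq_one_of_fix ?_ fun k => ?_)
    · have h1 : Commute (gword lift w) eA := gword_comm hwlt
      have h3 : Commute ε eA := (Subgroup.mem_center_iff.1 hεc eA).symm
      exact (h1.mul_left ((h3.mul_left (Commute.pow_self eA _)).inv_left)).eq
    · obtain ⟨⟨ha, hb⟩, hc⟩ := h2 k k.2
      rw [mul_smul]
      have hfix : (ε * eA ^ (e.2 % 5))⁻¹ • six k = eA ^ (5 - e.2 % 5) • ε⁻¹ • six k := by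
        rw [mul_inv_rev, mul_smul]
        congr 1
        refine inv_eq_of_mul_eq_one_right ?_
        rw [← pow_add, show e.2 % 5 + (5 - e.2 % 5) = 5 by omega, eA_pow_five]
      suffices hmain : gword lift w • six k = (ε * eA ^ (e.2 % 5)) • six k by
        rw [← mul_smul]
        have hcc : gword lift w * (ε * eA ^ (e.2 % 5))⁻¹ = (ε * eA ^ (e.2 % 5))⁻¹ * gword lift w := by
          have h1 : Commute (gword lift w) eA := gword_comm hwlt
          have h3 : Commute (gword lift w) ε := Subgroup.mem_center_iff.1 hεc _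
          exact (h3.mul_right (h1.pow_right _)).inv_right.eq
        rw [hcc, mul_smul, hmain, inv_smul_smul]
      refine Subtype.ext (toVec_ofVec_inj ?_)
      have hv : (six k : GolayPt → ℤ) = vec (sixCode k 0) := by
        have := pow_six k 0
        rwa [pow_zero, one_smul] at this
      have hl := (chain_sound _ _ hb (six k) (by rw [hv, ha])).1
      rw [List.reverse_reverse] at hl
      rw [hl, ofVec_vec, hc, mul_smul]
      rcases Bool.eq_false_or_eq_true e.1 with he | he
      · simp only [ε, he, cond_true, negOne_smul, AddSubgroup.coe_neg, pow_six, Nat.mod_mod, ofVec_neg,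
          ofVec_vec]
      · simp only [ε, he, cond_false, one_smul, pow_six, Nat.mod_mod, ofVec_vec]
  rw [hval]
  exact mul_mem (Subgroup.mem_sup_right hεc)
    (Subgroup.mem_sup_left (Subgroup.npow_mem_zpowers eA _))

/-! ### The upper bound -/

theorem level5_length : level5.length ≤ 50 ∧ levels.getD 0 [] = [[]] := by decide +kernel

theorem ip_smul_eq (g : Co0) (x y : leechLattice) :
    dotInt ((g • x : leechLattice) : GolayPt → ℤ) ((g • y : leechLattice) : GolayPt → ℤ) =
      dotInt (x : GolayPt → ℤ) (y : GolayPt → ℤ) := co0_dotInt g x y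

theorem exists_tuple {g : Co0} (hg : g * eA = eA * g) (hv : g • vv = vv) :
    ∃ f : Fin 5 → Fin 275, (∀ m, g • pt (bp m) = pt (f m)) ∧
      ((List.finRange 5).map fun m => (f m : ℕ)) ∈ level5 := by
  have hc : Commute g eA := hg
  have hpow : ∀ (i : ℕ) (x : leechLattice), g • eA ^ i • x = eA ^ i • g • x := fun i x => by
    rw [← mul_smul, (hc.pow_right i).eq, mul_smul]
  have hu : g • uu = uu := by
    have h1 := hpow 1 vv
    rw [pow_one, hv] at h1
    rw [uu, co0_map_add, hv, h1]
  have himg : ∀ y : Fin 275, ∃ y' : Fin 275, g • pt y = pt y' := by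
    intro y
    have hy : g • pt y ∈ LeechTriples.mclSet uu vv := by
      obtain ⟨h1, h2, h3⟩ : pt y ∈ LeechTriples.mclSet uu vv := range_pt ▸ ⟨y, rfl⟩
      refine ⟨by rw [co0_sqNorm]; exact h1, ?_, ?_⟩
      · conv_lhs => rw [← hu, ← AddSubgroup.coe_sub, ← co0_map_sub, co0_sqNorm, AddSubgroup.coe_sub]
        exact h2
      · conv_lhs => rw [← hv, co0_dotInt]
        exact h3
    rw [← range_pt] at hy
    obtain ⟨y', hy'⟩ := hy
    exact ⟨y', hy'.symm⟩
  choose σ hσ using himg
  have hdot : ∀ (y y' : Fin 275) (i : ℕ), i < 5 →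
      dot (vdec (pCode 0 (σ y))) (vdec (pCode i (σ y'))) = dot (vdec (pCode 0 y)) (vdec (pCode i y')) := by
    intro y y' i hi
    have h := co0_dotInt g (pt y) (eA ^ i • pt y')
    rw [hpow, hσ, hσ, pow_pt, pow_pt, Nat.mod_eq_of_lt hi] at h
    simpa [pt, dotInt_vec] using h
  have hsig : ∀ y : Fin 275, sigOf (σ y) = sigOf y := by
    intro y
    simp only [sigOf, hdot y y 1 (by norm_num), hdot y y 2 (by norm_num)]
    congr 1
    refine List.map_congr_left fun i hi => ?_
    have h := co0_dotInt g (pt y) (eA ^ i • vv)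
    rw [hpow, hσ, hv, pow_vv, Nat.mod_eq_of_lt (List.mem_range.1 hi)] at h
    simpa [pt, dotInt_vec] using h
  have hall : ∀ k < 5, _ := fun k hk => by
    have h : enumStep k = true := by
      interval_cases k
      exacts [enum_step0, enum_step1, enum_step2, enum_step3, enum_step4]
    simp only [enumStep, Model.allBelow_iff, Bool.and_eq_true, List.all_eq_true, Bool.or_eq_true,
      Bool.not_eq_true', Nat.blt, Nat.ble_eq, beq_iff_eq] at h
    exact h
  have hbp : ∀ m, ∀ hm : m < 5, (bp ⟨m, hm⟩ : ℕ) = baseIdx.getD m 0 % 275 := fun _ _ => rfl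
  let t : ℕ → ℕ := fun m => if h : m < 5 then (σ (bp ⟨m, h⟩) : ℕ) else 0
  have key : ∀ k ≤ 5, (List.range k).map t ∈ levels.getD k [] := by
    intro k hk
    induction k with
    | zero => rw [level5_length.2]; simp
    | succ k ih =>
      obtain ⟨⟨⟨hsb, hcand⟩, hrel⟩, hstep⟩ := hall k (by omega)
      have hk5 : k < 5 := by omega
      have htk : t k = (σ (bp ⟨k, hk5⟩) : ℕ) := dif_pos hk5
      have hyc : (candList.getD k []).contains (t k) = true := by
        refine (hcand (t k) (by rw [htk]; exact (σ _).2)).resolve_left fun hne => ?_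
        rw [htk, hsig, hbp k hk5, hsb] at hne
        simp at hne
      have hrs : ((relNeed.getD k []).all (relAt (t k) fun m => ((List.range k).map t).getD m 0)) = true := by
        refine List.all_eq_true.2 fun e he => ?_
        obtain ⟨⟨hek, he5⟩, heq⟩ := hrel e he
        have hek' : e.1 < 5 := by omega
        have hget : ((List.range k).map t).getD e.1 0 = t e.1 := by
          simp [List.getD_eq_getElem?_getD, List.getElem?_range (show e.1 < k by omega)]
        rw [relAt] at heq ⊢
        rw [hget, htk, show t e.1 = (σ (bp ⟨e.1, hek'⟩) : ℕ) from dif_pos hek', hdot _ _ _ he5,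
          hbp, hbp]
        exact heq
      have := (hstep _ (ih (by omega)) (t k) (List.contains_iff_mem.1 hyc)).resolve_left
        (by rw [hrs]; simp)
      rw [List.range_succ, List.map_append]
      exact List.contains_iff_mem.1 this
  refine ⟨fun m => σ (bp m), fun m => hσ _, ?_⟩
  have h5 := key 5 le_rfl
  have e : ((List.finRange 5).map fun m : Fin 5 => ((σ (bp m) : Fin 275) : ℕ)) =
      (List.range 5).map t := by
    refine List.ext_getElem (by simp) fun i h1 h2 => ?_
    have hi : i < 5 := by simpa using h2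
    simp [t, hi]
  rw [e]
  exact h5

theorem mem_cent {g : Co0} (hg : g ∈ Subgroup.centralizer {eA}) : g * eA = eA * g :=
  Subgroup.mem_centralizer_singleton_iff.1 hg

theorem card_cent : Nat.card (Subgroup.centralizer {eA}) ≤ 9828000 := by
  classical
  set C := Subgroup.centralizer {eA}
  have hfin : Set.Finite {x : GolayPt → ℤ | x ∈ leechLattice ∧ sqNorm x = 32} :=
    Set.finite_of_ncard_ne_zero (by rw [Cfsg.Agent.S0394.result]; norm_num)
  have hvv : sqNorm (vv : GolayPt → ℤ) = 32 := by
    have h := mcl_ok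
    simp only [mclOK, Bool.and_eq_true, beq_iff_eq] at h
    rw [sqNorm_eq, vv, ofVec_vec, h.1.1.1]
  have horb : (MulAction.orbit C vv).ncard ≤ 196560 := by
    rw [← Cfsg.Agent.S0394.result, ← Set.ncard_image_of_injective _ Subtype.val_injective]
    refine Set.ncard_le_ncard ?_ hfin
    rintro _ ⟨_, ⟨g, rfl⟩, rfl⟩
    exact ⟨Subtype.prop _, (co0_sqNorm (g : Co0) vv).trans hvv⟩
  let code : MulAction.stabilizer C vv → {l // l ∈ level5.toFinset} := fun g =>
    ⟨_, List.mem_toFinset.2 (exists_tuple (mem_cent g.1.2) g.2).choose_spec.2⟩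
  have hinj : Function.Injective code := by
    intro g g' h
    have h1 := (exists_tuple (mem_cent g.1.2) g.2).choose_spec.1
    have h2 := (exists_tuple (mem_cent g'.1.2) g'.2).choose_spec.1
    have h3 : ((List.finRange 5).map fun m => ((exists_tuple (mem_cent g.1.2) g.2).choose m : ℕ)) =
        ((List.finRange 5).map fun m => ((exists_tuple (mem_cent g'.1.2) g'.2).choose m : ℕ)) :=
      congrArg Subtype.val h
    have hfix : ((g'.1 : Co0))⁻¹ * (g.1 : Co0) = 1 := by
      refine eq_one_of_fix ?_ fun k => ?_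
      · exact mem_cent (mul_mem (inv_mem g'.1.2) g.1.2)
      · rw [mul_smul, inv_smul_eq_iff]
        unfold six
        split_ifs with hk
        · exact g.2.trans g'.2.symm
        · rw [h1, h2]
          have hk6 : (k : ℕ) - 1 < 5 := by have := k.2; omega
          have hlist := List.map_eq_map_iff.1 h3 (⟨(k : ℕ) - 1, hk6⟩ : Fin 5) (List.mem_finRange _)
          rw [Fin.ext hlist]
    exact Subtype.ext (Subtype.ext (inv_mul_eq_one.1 hfix).symm)
  have hstab : Nat.card (MulAction.stabilizer C vv) ≤ 50 := by
    refine (Nat.card_le_card_of_injective code hinj).trans ?_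
    rw [Nat.card_eq_fintype_card, Fintype.card_coe]
    exact (List.toFinset_card_le _).trans level5_length.1
  rw [← (MulAction.stabilizer C vv).index_mul_card, MulAction.index_stabilizer]
  exact (Nat.mul_le_mul horb hstab).trans (by norm_num)

/-- The subgroup of order 5. -/
def subA : Subgroup Co0 := Subgroup.zpowers eA

theorem cent_subA : Subgroup.centralizer (subA : Set Co0) = Subgroup.centralizer {eA} := by
  rw [subA, Subgroup.zpowers_eq_closure, Subgroup.centralizer_closure]

/-- Two lifts do not commute. -/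
def witOK : Bool :=
  let v := vdec (witness.getD 0 0)
  !(stepList rows0 (stepList rows1 v) == stepList rows1 (stepList rows0 v))

theorem wit_ok : witOK = true ∧ witness.getD 0 0 = vCode 0 := by decide +kernel

theorem lift_ne : lift 0 * lift 1 ≠ lift 1 * lift 0 := by
  intro h
  have h' := congrArg (fun g : Co0 => ofVec ((g • vv : leechLattice) : GolayPt → ℤ)) h
  simp only [mul_smul, lift_smul (show 0 < 5 by norm_num), lift_smul (show 1 < 5 by norm_num), matFun,
    vv, ofVec_vec] at h'
  have hl : ∀ l : List ℤ, (stepList rows0 l).length = 24 ∧ (stepList rows1 l).length = 24 :=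
    fun l => by simp [stepList, rows0, rows1]
  simp only [liftRows, List.getD_cons_zero, List.getD_cons_succ] at h'
  rw [ofVec_toVec (hl _).1, ofVec_toVec (hl _).2, ofVec_toVec (hl _).2, ofVec_toVec (hl _).1] at h'
  have hw := wit_ok.1
  rw [witOK, wit_ok.2] at hw
  simp [h'] at hw

theorem ne_one : eA ≠ 1 := by
  intro h
  have h' := pow_vv 1
  rw [h, one_pow, one_smul] at h'
  have h2 := congrArg ofVec h'
  rw [vv, ofVec_vec, ofVec_vec] at h2
  exact absurd h2 (by decide +kernel)

theorem negOne_ne_one : negOne ≠ (1 : Co0) := by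
  intro h
  have h' := congrArg (fun g : Co0 => ofVec ((g • vv : leechLattice) : GolayPt → ℤ)) h
  simp only [negOne_smul, one_smul, AddSubgroup.coe_neg, ofVec_neg, vv, ofVec_vec] at h'
  exact absurd h' (by decide +kernel)

theorem main : Nat.card subA = 5 ∧
    ∃ _hn : ((subA ⊔ Subgroup.center Co0).subgroupOf (Subgroup.centralizer (subA : Set Co0))).Normal,
      Nonempty (Hundred.grp ≃* ↥(Subgroup.centralizer (subA : Set Co0)) ⧸
        (subA ⊔ Subgroup.center Co0).subgroupOf (Subgroup.centralizer (subA : Set Co0))) := by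
  haveI := Fact.mk (show Nat.Prime 5 by norm_num)
  have ho : orderOf eA = 5 := orderOf_eq_prime eA_pow_five ne_one
  refine ⟨by rw [subA, Nat.card_zpowers, ho], ?_⟩
  set C := Subgroup.centralizer (subA : Set Co0) with hCdef
  set N := (subA ⊔ Subgroup.center Co0).subgroupOf C with hNdef
  have hC : ∀ x, x ∈ C ↔ x * eA = eA * x := fun x => by
    rw [hCdef, cent_subA, Subgroup.mem_centralizer_singleton_iff]
  have hAC : subA ⊔ Subgroup.center Co0 ≤ C := by
    refine sup_le (Subgroup.zpowers_le.2 ((hC eA).2 rfl)) fun z hz => (hC z).2 ?_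
    exact (Subgroup.mem_center_iff.1 hz eA).symm
  have hcen : ∀ c ∈ C, ∀ n ∈ subA ⊔ Subgroup.center Co0, c * n = n * c := by
    intro c hc n hn
    have hle : subA ⊔ Subgroup.center Co0 ≤ Subgroup.centralizer {c} := by
      refine sup_le (Subgroup.zpowers_le.2 ?_) fun z hz => ?_
      · rw [Subgroup.mem_centralizer_singleton_iff]; exact ((hC c).1 hc).symm
      · rw [Subgroup.mem_centralizer_singleton_iff]; exact (Subgroup.mem_center_iff.1 hz c).symm
    exact (Subgroup.mem_centralizer_singleton_iff.1 (hle hn)).symm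
  have hN : N.Normal := ⟨fun n hn c => by
    have : c * n * c⁻¹ = n := by
      rw [show c * n = n * c from Subtype.ext (hcen c c.2 n hn), mul_assoc, mul_inv_cancel, mul_one]
    rwa [this]⟩
  refine ⟨hN, ?_⟩
  haveI := hN
  have hliftC : ∀ x < 5, lift x ∈ C := fun x hx => (hC _).2 (lift_comm hx)
  let v : ℕ → C ⧸ N := fun x => if hx : x < 5 then QuotientGroup.mk ⟨lift x, hliftC x hx⟩ else 1
  have hv : ∀ w ∈ Hundred.rels, gword v w = 1 := by
    intro w hw
    have hlt := wordsLt_sound (D := Hundred.D)
      (show wordsLt Hundred.D Hundred.rels = true by decide +kernel) w hw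
    let u : ℕ → C := fun x => if hx : x < 5 then ⟨lift x, hliftC x hx⟩ else 1
    have h1 : gword v w = QuotientGroup.mk' N (gword u w) := by
      rw [gword_map]
      exact gword_congr _ _ fun x hx => by
        have hx5 : x < 5 := hlt x hx
        simp [v, u, hx5]
    rw [h1, QuotientGroup.mk'_apply, QuotientGroup.eq_one_iff, hNdef, Subgroup.mem_subgroupOf]
    have h2 : ((gword u w : C) : Co0) = gword lift w := by
      rw [← Subgroup.coe_subtype, gword_map]
      exact gword_congr _ _ fun x hx => by
        have hx5 : x < 5 := hlt x hx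
        simp [u, hx5]
    rw [h2]
    exact rel_value hw
  let p : ℕ → (C ⧸ N) × Hundred.grp := fun x => (v x, Hundred.gens x)
  have hp : ∀ r ∈ Hundred.rels, gword p r = 1 := fun r hr => by
    refine Prod.ext ?_ ?_
    · show MonoidHom.fst _ _ (gword p r) = _
      rw [gword_map]; exact hv r hr
    · show MonoidHom.snd _ _ (gword p r) = _
      rw [gword_map]; exact Hundred.gens_rels r hr
  obtain ⟨hle, hne⟩ := Hundred.card_seg_le p hp
  haveI : Finite (Hundred.seg p 5) := Nat.finite_of_card_ne_zero hne
  let q : Hundred.seg p 5 →* Hundred.grp := (MonoidHom.snd _ _).comp (Hundred.seg p 5).subtype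
  have hq : Function.Surjective q := by
    intro y
    have hy : y ∈ (Hundred.seg p 5).map (MonoidHom.snd _ _) := by
      rw [map_seg]
      exact Hundred.closure_gens.ge (Subgroup.mem_top y)
    obtain ⟨x, hx, rfl⟩ := hy
    exact ⟨⟨x, hx⟩, rfl⟩
  have hqb : Function.Bijective q := (Nat.bijective_iff_surjective_and_card q).2
    ⟨hq, le_antisymm (hle.trans_eq Hundred.card_grp.symm) (Nat.card_le_card_of_surjective q hq)⟩
  let θ : Hundred.grp →* C ⧸ N :=
    ((MonoidHom.fst _ _).comp (Hundred.seg p 5).subtype).comp (MulEquiv.ofBijective q hqb).symm.toMonoidHom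
  have hθ : θ (Hundred.gens 0) = v 0 := by
    have e : (MulEquiv.ofBijective q hqb).symm (Hundred.gens 0) =
        ⟨p 0, Subgroup.subset_closure ⟨0, by norm_num, rfl⟩⟩ :=
      (MulEquiv.symm_apply_eq _).2 rfl
    show (((MulEquiv.ofBijective q hqb).symm (Hundred.gens 0) : Hundred.seg p 5) : (C ⧸ N) × Hundred.grp).1 = v 0
    rw [e]
  have := Hundred.simple
  have hinj : Function.Injective θ := by
    rw [← MonoidHom.ker_eq_bot_iff]
    refine θ.normal_ker.eq_bot_or_eq_top.resolve_right fun htop => ?_
    have h0 : θ (Hundred.gens 0) = 1 := MonoidHom.mem_ker.1 (htop ▸ Subgroup.mem_top _)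
    rw [hθ] at h0
    simp only [v, show (0 : ℕ) < 5 by norm_num, dif_pos, QuotientGroup.eq_one_iff] at h0
    exact lift_ne (hcen _ (hliftC 1 (by norm_num)) _ h0).symm
  have hneg : negOne ∈ subA ⊔ Subgroup.center Co0 :=
    Subgroup.mem_sup_right (Subgroup.mem_center_iff.2 fun g => (negOne_comm g).symm)
  have hcardN : 10 ≤ Nat.card N := by
    rw [Nat.card_congr (Subgroup.subgroupOfEquivOfLe hAC).toEquiv]
    refine Nat.le_of_dvd Nat.card_pos (Nat.Coprime.mul_dvd_of_dvd_of_dvd
      (show Nat.Coprime 5 2 by norm_num) ?_ ?_)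
    · exact ho ▸ Subgroup.orderOf_dvd_natCard (s := subA ⊔ Subgroup.center Co0)
        (Subgroup.mem_sup_left (Subgroup.mem_zpowers eA))
    · haveI := Fact.mk Nat.prime_two
      have h2 : orderOf negOne = 2 := orderOf_eq_prime (co0_ext fun i => by
        rw [pow_two, mul_smul, negOne_smul, negOne_smul, neg_neg, one_smul]) negOne_ne_one
      exact h2 ▸ Subgroup.orderOf_dvd_natCard (s := subA ⊔ Subgroup.center Co0) hneg
  have hidx : Nat.card (C ⧸ N) ≤ 982800 := by
    have h := N.card_eq_card_quotient_mul_card_subgroup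
    have hb : Nat.card C ≤ 9828000 := by rw [hCdef, cent_subA]; exact card_cent
    have := Nat.mul_le_mul_left (Nat.card (C ⧸ N)) hcardN
    omega
  have hd : 604800 ∣ Nat.card (C ⧸ N) :=
    Hundred.card_grp ▸ Subgroup.card_dvd_of_injective θ hinj
  have hcard : Nat.card (C ⧸ N) = 604800 := by
    obtain ⟨k, hk⟩ := hd
    have : 0 < Nat.card (C ⧸ N) := Nat.card_pos
    have : k = 1 := by omega
    omega
  exact ⟨MulEquiv.ofBijective θ ((Nat.bijective_iff_injective_and_card θ).2
    ⟨hinj, by rw [Hundred.card_grp, hcard]⟩)⟩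

end CfsgLib.Co0Five

end
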