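import Mathlib
import Cfsg.Agent.Leech.Co0
import Cfsg.Agent.Leech.Perm

/-! Automorphisms of the lattice given by 24 by 24 tables. -/

set_option autoImplicit false
set_option linter.style.haveILetI false

namespace CfsgLib.Co0Five

open Cfsg CfsgLib.Leech
open scoped BigOperators

/-- Product of two lists. -/
def dot : List ℤ → List ℤ → ℤ
  | a :: as, b :: bs => a * b + dot as bs
  | _, _ => 0

/-- A vector given by its list of coordinates. -/
def toVec (l : List ℤ) : GolayPt → ℤ := fun p => l.getD (ptIdx p) 0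

/-- The list of coordinates of a vector. -/
def ofVec (x : GolayPt → ℤ) : List ℤ := (List.range 24).map fun i => x (idxPt i)

/-- A table applied to a list. -/
def stepList (rows : List (List ℤ)) (l : List ℤ) : List ℤ := rows.map fun r => dot r l / 8

/-- A table applied to a vector. -/
def matFun (rows : List (List ℤ)) (x : GolayPt → ℤ) : GolayPt → ℤ := toVec (stepList rows (ofVec x))

theorem toVec_ofVec (x : GolayPt → ℤ) : toVec (ofVec x) = x := by
  funext p
  have h : ∀ p : GolayPt, idxPt (ptIdx p) = p ∧ ptIdx p < 24 := by decide +kernel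
  obtain ⟨h1, h2⟩ := h p
  simp [toVec, ofVec, List.getD_eq_getElem?_getD, List.getElem?_range h2, h1]

theorem dot_map_add {α : Type*} (f g : α → ℤ) : ∀ (r : List ℤ) (l : List α),
    dot r (l.map fun a => f a + g a) = dot r (l.map f) + dot r (l.map g)
  | [], l => by simp [dot]
  | a :: r, [] => by simp [dot]
  | a :: r, b :: l => by simp [dot, dot_map_add f g r l, mul_add]; ring

theorem dot_add (r : List ℤ) (x y : GolayPt → ℤ) :
    dot r (ofVec (x + y)) = dot r (ofVec x) + dot r (ofVec y) :=
  dot_map_add (fun i => x (idxPt i)) (fun i => y (idxPt i)) r (List.range 24)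

/-- The linear form of a row. -/
def rowHom (r : List ℤ) : (GolayPt → ℤ) →+ ℤ := AddMonoidHom.mk' (fun x => dot r (ofVec x)) (dot_add r)

theorem matFun_add {rows : List (List ℤ)} {x y : GolayPt → ℤ}
    (hx : ∀ r ∈ rows, (8 : ℤ) ∣ dot r (ofVec x)) :
    matFun rows (x + y) = matFun rows x + matFun rows y := by
  funext p
  simp only [matFun, toVec, stepList, Pi.add_apply, List.getD_eq_getElem?_getD, List.getElem?_map]
  cases h : rows[ptIdx p]? with
  | none => simp
  | some r =>
    simp only [Option.map_some, Option.getD_some, dot_add]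
    exact Int.add_ediv_of_dvd_left (hx r (List.mem_of_getElem? h))

/-- The conditions on a table and its transpose. -/
structure MatOK (rows cols : List (List ℤ)) : Prop where
  dvd : ∀ g ∈ genList, (∀ r ∈ rows, dot r (ofVec g) % 8 = 0) ∧ (∀ r ∈ cols, dot r (ofVec g) % 8 = 0)
  img : ∀ g ∈ genList, CheckLeech (matFun rows g) ∧ CheckLeech (matFun cols g)
  left : ∀ g ∈ genList, matFun cols (matFun rows g) = g
  right : ∀ g ∈ genList, matFun rows (matFun cols g) = g
  orth : ∀ i j : GolayPt, dotInt (matFun rows (axisVec i : GolayPt → ℤ))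
    (matFun rows (axisVec j : GolayPt → ℤ)) = if i = j then 64 else 0

theorem dvd_of_gens {rows : List (List ℤ)}
    (h : ∀ g ∈ genList, ∀ r ∈ rows, dot r (ofVec g) % 8 = 0) {x : GolayPt → ℤ}
    (hx : x ∈ leechLattice) : ∀ r ∈ rows, (8 : ℤ) ∣ dot r (ofVec x) := by
  intro r hr
  have hle : leechLattice ≤ (AddSubgroup.zmultiples (8 : ℤ)).comap (rowHom r) :=
    leech_le_of_genList fun g hg => Int.mem_zmultiples_iff.2 (Int.dvd_of_emod_eq_zero (h g hg r hr))
  exact Int.mem_zmultiples_iff.1 (hle hx)

/-- A table as an additive map of the lattice. -/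
def matHom (rows : List (List ℤ)) (h : ∀ g ∈ genList, ∀ r ∈ rows, dot r (ofVec g) % 8 = 0) :
    leechLattice →+ (GolayPt → ℤ) :=
  AddMonoidHom.mk' (fun v => matFun rows v) fun u v => matFun_add (dvd_of_gens h u.2)

theorem matFun_mem {rows : List (List ℤ)}
    (h : ∀ g ∈ genList, ∀ r ∈ rows, dot r (ofVec g) % 8 = 0)
    (hi : ∀ g ∈ genList, CheckLeech (matFun rows g)) {x : GolayPt → ℤ} (hx : x ∈ leechLattice) :
    matFun rows x ∈ leechLattice := by
  have hle : leechLattice ≤ (leechLattice.comap (matHom rows h)).map leechLattice.subtype :=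
    leech_le_of_genList fun g hg => ⟨⟨g, genList_mem g hg⟩, mem_leech_of_check (hi g hg), rfl⟩
  obtain ⟨v, hv, rfl⟩ := hle hx
  exact hv

theorem matFun_inv {rows cols : List (List ℤ)}
    (h : ∀ g ∈ genList, ∀ r ∈ rows, dot r (ofVec g) % 8 = 0)
    (hi : ∀ g ∈ genList, CheckLeech (matFun rows g))
    (h' : ∀ g ∈ genList, ∀ r ∈ cols, dot r (ofVec g) % 8 = 0)
    (hl : ∀ g ∈ genList, matFun cols (matFun rows g) = g) {x : GolayPt → ℤ}
    (hx : x ∈ leechLattice) : matFun cols (matFun rows x) = x := by
  let f : leechLattice →+ leechLattice :=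
    AddMonoidHom.mk' (fun v => ⟨matFun rows v, matFun_mem h hi v.2⟩)
      fun u v => Subtype.ext (matFun_add (dvd_of_gens h u.2))
  let F : leechLattice →+ (GolayPt → ℤ) := (matHom cols h').comp f
  have hle : leechLattice ≤ (F.eqLocus leechLattice.subtype).map leechLattice.subtype :=
    leech_le_of_genList fun g hg => ⟨⟨g, genList_mem g hg⟩, hl g hg, rfl⟩
  obtain ⟨v, hv, rfl⟩ := hle hx
  exact hv

theorem sqNorm_matFun {rows : List (List ℤ)}
    (h : ∀ g ∈ genList, ∀ r ∈ rows, dot r (ofVec g) % 8 = 0)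
    (ho : ∀ i j : GolayPt, dotInt (matFun rows (axisVec i : GolayPt → ℤ))
      (matFun rows (axisVec j : GolayPt → ℤ)) = if i = j then 64 else 0)
    {x : GolayPt → ℤ} (hx : x ∈ leechLattice) : sqNorm (matFun rows x) = sqNorm x := by
  let F := matHom rows h
  have h8 : (8 : ℤ) • F ⟨x, hx⟩ = ∑ i, x i • F (axisVec i) := by
    rw [← map_zsmul, eight_zsmul_eq_sum, map_sum]
    simp only [map_zsmul]
  have key : ∑ k, ((8 : ℤ) • F ⟨x, hx⟩) k * ((8 : ℤ) • F ⟨x, hx⟩) k = 64 * sqNorm x := by
    rw [h8]
    simp only [Finset.sum_apply, Pi.smul_apply, smul_eq_mul, Finset.sum_mul_sum]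
    rw [Finset.sum_comm]
    simp only [sqNorm, Finset.mul_sum]
    refine Finset.sum_congr rfl fun i _ => ?_
    rw [Finset.sum_comm]
    have e : ∀ j, ∑ k, x i * F (axisVec i) k * (x j * F (axisVec j) k) =
        if i = j then 64 * (x i * x j) else 0 := by
      intro j
      have hij := ho i j
      simp only [dotInt] at hij
      calc ∑ k, x i * F (axisVec i) k * (x j * F (axisVec j) k)
          = x i * x j * ∑ k, F (axisVec i) k * F (axisVec j) k := by
            rw [Finset.mul_sum]; exact Finset.sum_congr rfl fun k _ => by ring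
        _ = x i * x j * (if i = j then 64 else 0) := by rw [← hij]; rfl
        _ = _ := by split_ifs <;> ring
    simp only [e, Finset.sum_ite_eq, Finset.mem_univ, if_true]
    ring
  have e2 : ∑ k, ((8 : ℤ) • F ⟨x, hx⟩) k * ((8 : ℤ) • F ⟨x, hx⟩) k =
      64 * sqNorm (matFun rows x) := by
    simp only [sqNorm, Finset.mul_sum, Pi.smul_apply, smul_eq_mul]
    exact Finset.sum_congr rfl fun k _ => by
      show 8 * matFun rows x k * (8 * matFun rows x k) = _
      ring
  omega

/-- The automorphism of a table. -/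
def matCo0 {rows cols : List (List ℤ)} (h : MatOK rows cols) : Co0 :=
  mkCo0 (matFun rows) (matFun cols)
    (fun _ => matFun_mem (fun g hg => (h.dvd g hg).1) (fun g hg => (h.img g hg).1))
    (fun _ => matFun_mem (fun g hg => (h.dvd g hg).2) (fun g hg => (h.img g hg).2))
    (fun _ => matFun_inv (fun g hg => (h.dvd g hg).1) (fun g hg => (h.img g hg).1)
      (fun g hg => (h.dvd g hg).2) h.left)
    (fun _ => matFun_inv (fun g hg => (h.dvd g hg).2) (fun g hg => (h.img g hg).2)
      (fun g hg => (h.dvd g hg).1) h.right)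
    (fun _ hx _ _ => matFun_add (dvd_of_gens (fun g hg => (h.dvd g hg).1) hx))
    (fun _ => sqNorm_matFun (fun g hg => (h.dvd g hg).1) h.orth)

theorem matCo0_smul {rows cols : List (List ℤ)} (h : MatOK rows cols) (v : leechLattice) :
    ((matCo0 h • v : leechLattice) : GolayPt → ℤ) = matFun rows v := rfl

end CfsgLib.Co0Five
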