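import Cfsg.Agent.Co0Five.Elements
import Cfsg.Agent.Co0Five.Check.Orbit0
import Cfsg.Agent.Co0Five.Check.Orbit1
import Cfsg.Agent.Co0Five.Check.Orbit2
import Cfsg.Agent.Co0Five.Check.Points0
import Cfsg.Agent.Co0Five.Check.Points1
import Cfsg.Agent.Co0Five.Check.Span
import Cfsg.Agent.LeechTriples.McLTransfer
import Cfsg.Agent.CosetEnum.Sound

/-! Soundness of the certificates: the fixed vectors, the points and the elements. -/

set_option autoImplicit false
set_option maxRecDepth 100000

noncomputable section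

namespace CfsgLib.Co0Five

open Cfsg CfsgLib.Leech CfsgLib.CosetEnum
open scoped BigOperators

theorem pts_idx : ∀ i : Fin 24, ptIdx (idxPt i) = i := by decide +kernel

theorem ofVec_toVec {l : List ℤ} (h : l.length = 24) : ofVec (toVec l) = l := by
  refine List.ext_getElem (by simp [ofVec, h]) fun i h1 h2 => ?_
  have hi : i < 24 := h ▸ h2
  simp [ofVec, toVec, pts_idx ⟨i, hi⟩, h2]

theorem ofVec_vec (c : ℕ) : ofVec (vec c) = vdec c := ofVec_toVec (by simp [vdec])

theorem dot_map {α : Type*} (f g : α → ℤ) : ∀ l : List α,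
    dot (l.map f) (l.map g) = (l.map fun a => f a * g a).sum
  | [] => rfl
  | a :: l => by simp [dot, dot_map f g l]

theorem dotInt_eq (x y : GolayPt → ℤ) : dotInt x y = dot (ofVec x) (ofVec y) := by
  have h : ((List.range 24).map idxPt).toFinset = (Finset.univ : Finset GolayPt) ∧
      ((List.range 24).map idxPt).Nodup := by decide +kernel
  rw [dotInt, ← h.1, List.sum_toFinset _ h.2, List.map_map, ofVec, ofVec, dot_map]
  rfl

theorem dotInt_vec (c d : ℕ) : dotInt (vec c) (vec d) = dot (vdec c) (vdec d) := by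
  rw [dotInt_eq, ofVec_vec, ofVec_vec]

theorem sqNorm_eq (x : GolayPt → ℤ) : sqNorm x = dot (ofVec x) (ofVec x) := by
  rw [← dotInt_eq, sqNorm, dotInt]; simp [sq]

theorem matFun_vec {rows : List (List ℤ)} {c d : ℕ} (h : (stepList rows (vdec c) == vdec d) = true) :
    matFun rows (vec c) = vec d := by
  rw [matFun, ofVec_vec, eq_of_beq h]; rfl

theorem check_P (k : Fin 275) : CheckLeech (vec (pCode 0 k)) := by
  by_cases h : (k : ℕ) < 140
  · exact check_P_low ⟨k, h⟩
  · have := check_P_high ⟨(k : ℕ) - 140, by omega⟩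
    rwa [show 140 + ((⟨(k : ℕ) - 140, by omega⟩ : Fin 135) : ℕ) = k by simp only; omega] at this

theorem orbit_step {i : ℕ} (h : i < 5) : orbitStep i = true := by
  interval_cases i
  exacts [orbit_step0, orbit_step1, orbit_step2, orbit_step3, orbit_step4]

/-- The first vector. -/
def vv : leechLattice := ⟨vec (vCode 0), mem_leech_of_check check_v0⟩

/-- The sum of the first vector and its image. -/
def uu : leechLattice := vv + eA • vv

/-- The points. -/
def pt (k : Fin 275) : leechLattice := ⟨vec (pCode 0 k), mem_leech_of_check (check_P k)⟩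

theorem pow_vv : ∀ i : ℕ, ((eA ^ i • vv : leechLattice) : GolayPt → ℤ) = vec (vCode (i % 5))
  | 0 => by rw [pow_zero, one_smul]; rfl
  | i + 1 => by
    have h := orbit_step (Nat.mod_lt i (show 5 > 0 by norm_num))
    simp only [orbitStep, Bool.and_eq_true] at h
    rw [pow_succ', mul_smul, eA, matCo0_smul, ← eA, pow_vv i, matFun_vec h.1]
    congr 2; omega

theorem pow_pt (k : Fin 275) : ∀ i : ℕ,
    ((eA ^ i • pt k : leechLattice) : GolayPt → ℤ) = vec (pCode (i % 5) k)
  | 0 => by rw [pow_zero, one_smul]; rfl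
  | i + 1 => by
    have h := orbit_step (Nat.mod_lt i (show 5 > 0 by norm_num))
    simp only [orbitStep, Bool.and_eq_true, Model.allBelow_iff] at h
    rw [pow_succ', mul_smul, eA, matCo0_smul, ← eA, pow_pt k i, matFun_vec (h.2 k k.2)]
    congr 2; omega

theorem ofVec_getD (x : GolayPt → ℤ) {i : ℕ} (h : i < 24) : (ofVec x).getD i 0 = x (idxPt i) := by
  simp [ofVec, List.getD_eq_getElem?_getD, List.getElem?_range h]

theorem ofVec_add (x y : GolayPt → ℤ) : ofVec (x + y) = addList (ofVec x) (ofVec y) := by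
  refine List.map_congr_left fun i hi => ?_
  rw [ofVec_getD x (List.mem_range.1 hi), ofVec_getD y (List.mem_range.1 hi)]; rfl

theorem ofVec_sub (x y : GolayPt → ℤ) : ofVec (x - y) = subList (ofVec x) (ofVec y) := by
  refine List.map_congr_left fun i hi => ?_
  rw [ofVec_getD x (List.mem_range.1 hi), ofVec_getD y (List.mem_range.1 hi)]; rfl

theorem uu_list : ofVec (uu : GolayPt → ℤ) = addList (vdec (vCode 0)) (vdec (vCode 1)) := by
  have h := pow_vv 1
  rw [pow_one] at h
  rw [uu, AddSubgroup.coe_add, h, ofVec_add, vv, ofVec_vec, ofVec_vec]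

theorem pt_injective : Function.Injective pt := by
  intro j k h
  have h' : vdec (pCode 0 j) = vdec (pCode 0 k) := by
    have := congrArg (fun x : leechLattice => ofVec (x : GolayPt → ℤ)) h
    simpa [pt, ofVec_vec] using this
  have hc : ∀ j : Fin 275, pCode 0 j =
      ((List.range 24).map fun i => (((vdec (pCode 0 j)).getD i 0 + 4).toNat) * 16 ^ i).sum :=
    fun j => eq_of_beq ((Model.allBelow_iff _ _).1 nodup_ok.2 j j.2)
  have he : pCode 0 j = pCode 0 k := by rw [hc j, hc k, h']
  refine Fin.ext (nodup_ok.1.getElem_inj_iff (hi := by simp) (hj := by simp) |>.1 ?_)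
  simpa using he

theorem range_pt : Set.range pt = LeechTriples.mclSet uu vv := by
  have h := mcl_ok
  simp only [mclOK, Bool.and_eq_true, beq_iff_eq, Model.allBelow_iff] at h
  obtain ⟨⟨⟨hv, hu⟩, huv⟩, hP⟩ := h
  have hnu : nrm uu = 48 := by rw [nrm, sqNorm_eq, uu_list, hu]
  have hnv : nrm vv = 32 := by rw [nrm, sqNorm_eq, vv, ofVec_vec, hv]
  have hd : ip uu vv = 24 := by rw [ip, dotInt_eq, uu_list, vv, ofVec_vec, huv]
  have hcard := LeechTriples.ncard_mclSet hnu hnv hd
  refine Set.eq_of_subset_of_ncard_le ?_ ?_ (Set.finite_of_ncard_ne_zero (by omega))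
  · rintro _ ⟨k, rfl⟩
    obtain ⟨⟨h1, h2⟩, h3⟩ := hP k k.2
    refine ⟨?_, ?_, ?_⟩
    · rw [sqNorm_eq, pt, ofVec_vec, h1]
    · rw [sqNorm_eq, ofVec_sub, uu_list, pt, ofVec_vec, h2]
    · rw [dotInt_eq, vv, pt, ofVec_vec, ofVec_vec, h3]
  · rw [hcard, Set.ncard_range_of_injective pt_injective, Nat.card_fin]

/-! ### Rigidity -/

/-- The five base points. -/
def bp (k : Fin 5) : Fin 275 := ⟨baseIdx.getD k 0 % 275, Nat.mod_lt _ (by norm_num)⟩

/-- The six vectors. -/
def six (k : Fin 6) : leechLattice := if h : (k : ℕ) = 0 then vv else pt (bp ⟨(k : ℕ) - 1, by omega⟩)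

theorem pow_six (k : Fin 6) (i : ℕ) :
    ((eA ^ i • six k : leechLattice) : GolayPt → ℤ) = vec (sixCode k (i % 5)) := by
  unfold six sixCode
  split_ifs
  · exact pow_vv i
  · exact pow_pt _ i

/-- An element of the centraliser fixing the six vectors is trivial. -/
theorem eq_one_of_fix {g : Co0} (hg : g * eA = eA * g) (h : ∀ k, g • six k = six k) : g = 1 := by
  have hpow : ∀ i : ℕ, ∀ k, g • eA ^ i • six k = eA ^ i • six k := fun i k => by
    rw [← mul_smul, (Commute.pow_right hg i).eq, mul_smul, h]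
  refine co0_ext fun i => ?_
  have hax : axisVec i = ∑ q : Fin 30, (spanCoef.getD (ptIdx i) []).getD q 0 •
      (eA ^ ((q : ℕ) % 5) • six ⟨(q : ℕ) / 5, by omega⟩) := by
    refine Subtype.ext (funext fun p => ?_)
    simp only [AddSubgroup.val_finsetSum, Finset.sum_apply, AddSubgroup.coe_zsmul, Pi.smul_apply,
      smul_eq_mul, pow_six, Nat.mod_mod]
    exact span_ok i p
  rw [one_smul, hax, co0_map_sum]
  exact Finset.sum_congr rfl fun q _ => by rw [co0_map_zsmul, hpow]

theorem eA_pow_five : eA ^ 5 = 1 := by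
  refine eq_one_of_fix (Commute.pow_self eA 5).eq fun k => Subtype.ext ?_
  rw [pow_six]
  exact (congrArg Subtype.val (one_smul Co0 (six k))).symm.trans (pow_six k 0 ▸ by rw [pow_zero]) |>.symm

theorem negOne_comm (g : Co0) : negOne * g = g * negOne := by
  refine co0_ext fun i => ?_
  rw [mul_smul, mul_smul, negOne_smul, negOne_smul, co0_map_neg]

/-! ### The lifts -/

theorem rows_length : rowsA.length = 24 ∧ ∀ x : Fin 5, (liftRows x).length = 24 := by decide +kernel

theorem lift_comm {x : ℕ} (hx : x < 5) : lift x * eA = eA * lift x := by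
  refine co0_ext fun i => Subtype.ext ?_
  have h := eq_of_beq ((Model.allBelow_iff _ _).1 ((Model.allBelow_iff _ _).1 comm_ok x hx)
    (ptIdx i) ((by decide +kernel : ∀ i : GolayPt, ptIdx i < 24) i))
  have hi : idxPt (ptIdx i) = i := (by decide +kernel : ∀ i : GolayPt, idxPt (ptIdx i) = i) i
  rw [hi] at h
  rw [mul_smul, mul_smul, lift_smul hx, eA, matCo0_smul, matCo0_smul, lift_smul hx, matFun, matFun,
    matFun, matFun, ofVec_toVec (by simp [stepList, rows_length.1]),
    ofVec_toVec (by simp [stepList, rows_length.2 ⟨x, hx⟩])]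
  exact congrArg toVec h.symm

end CfsgLib.Co0Five

end
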